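import Cfsg.Agent.Lib.RuPerm.RecogRigidChecks

/-! Kernel checks of the batches of the rigidity certificate. -/

set_option autoImplicit false
set_option maxRecDepth 100000
set_option Elab.async false

namespace CfsgLib.RuPerm.Recog

open CfsgLib.SporRecognition.CosetCert
open CfsgLib.RankThreeRecog

theorem sort1_ok : allBelow 12 4060 (orderStep 4060 (key Data.rgBatchRows1 mask7) (tab Data.rgPos1 12) (tab Data.rgOrd1 12)) = true := by
  decide +kernel

theorem single1_ok : allBelow 12 4060 (singleAt 4060 (key Data.rgBatchRows1 mask7) (tab Data.rgPos1 12) (tab Data.rgOrd1 12) mask7 Data.rgNew1) = true := by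
  decide +kernel

theorem sort2_ok : allBelow 12 4060 (orderStep 4060 (key Data.rgBatchRows2 mask8) (tab Data.rgPos2 12) (tab Data.rgOrd2 12)) = true := by
  decide +kernel

theorem single2_ok : allBelow 12 4060 (singleAt 4060 (key Data.rgBatchRows2 mask8) (tab Data.rgPos2 12) (tab Data.rgOrd2 12) mask8 Data.rgNew2) = true := by
  decide +kernel

theorem sort3_ok : allBelow 12 4060 (orderStep 4060 (key Data.rgBatchRows3 mask9) (tab Data.rgPos3 12) (tab Data.rgOrd3 12)) = true := by
  decide +kernel

theorem single3_ok : allBelow 12 4060 (singleAt 4060 (key Data.rgBatchRows3 mask9) (tab Data.rgPos3 12) (tab Data.rgOrd3 12) mask9 Data.rgNew3) = true := by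
  decide +kernel

theorem sort4_ok : allBelow 12 4060 (orderStep 4060 (key Data.rgBatchRows4 mask10) (tab Data.rgPos4 12) (tab Data.rgOrd4 12)) = true := by
  decide +kernel

theorem single4_ok : allBelow 12 4060 (singleAt 4060 (key Data.rgBatchRows4 mask10) (tab Data.rgPos4 12) (tab Data.rgOrd4 12) mask10 Data.rgNew4) = true := by
  decide +kernel

theorem all_fixed : allBelow 12 4060 (fun i => Nat.testBit mask11 i) = true := by decide +kernel

end CfsgLib.RuPerm.Recog
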