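import Cfsg.Agent.Lib.RuPerm.Group
import Cfsg.Agent.Lib.RankThreeRecog.Graph

/-!
The suborbits of the group on 4060 lines, for the recognition of rank three groups: the graph of the suborbit of
size 1755 is given by the labels of the lines.
-/

set_option autoImplicit false
set_option Elab.async false

namespace CfsgLib.RuPerm.Recog

open CfsgLib.SporRecognition.CosetCert
open CfsgLib.RankThreeRecog
open MulAction

/-- The base line of the suborbit of size 1755. -/
def nearPt : Fin 4060 := ⟨2305, by norm_num⟩

/-- The base line of the suborbit of size 2304. -/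
def farPt : Fin 4060 := ⟨1, by norm_num⟩

/-- The lines with a given label. -/
def labSet (l : ℕ) : Set (Fin 4060) := {u | pLabel u = l}

theorem lab_facts : pLabel 0 = 0 ∧ pLabel 1 = 1 ∧ pLabel 2305 = 2 := by decide +kernel

theorem ncard_labSet (l : Fin 3) : (labSet l).ncard = pSizes.getD l.1 0 := by
  rw [labSet, ← pCount_ok l, ← ncard_lab (by norm_num)]

theorem labSet_subset (u : Fin 4060) : labSet (pLabel u) ⊆ orbit (stabilizer grp (0 : Fin 4060)) u := by
  intro v hv
  have htree : ∀ i < 4060,
      treeStep sTabs (fun u => u) pLabel pRoot (tab Data.pRk 8) (tab Data.pVia 2) (tab Data.pSrc 12) 4060 i = true := by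
    intro i hi
    have h := allBelow_spec pTree_ok i hi
    simp only [pTreeStep, Bool.and_eq_true] at h
    exact h.2
  obtain ⟨g, hg, r, hr, hgr⟩ := reach (G := sub) (fun _ h => sub_real h) (fun u hu => hu) htree u u.2
  obtain ⟨g', hg', r', hr', hgr'⟩ := reach (G := sub) (fun _ h => sub_real h) (fun u hu => hu) htree v v.2
  obtain rfl : r = r' := Fin.ext (by rw [hr, hr', show pLabel (v : ℕ) = pLabel u from hv])
  have hmem : g' * g⁻¹ ∈ sub := mul_mem hg' (inv_mem hg)
  refine ⟨⟨⟨g' * g⁻¹, sub_le hmem⟩, subIn_le (Subgroup.mem_subgroupOf.2 hmem)⟩, ?_⟩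
  show (g' * g⁻¹) u = v
  rw [Equiv.Perm.mul_apply, show u = g r from Fin.ext hgr.symm, Equiv.Perm.inv_def, Equiv.symm_apply_apply]
  exact Fin.ext hgr'

theorem orbit_dvd (u : Fin 4060) : (orbit (stabilizer grp (0 : Fin 4060)) u).ncard ∣ 35942400 :=
  Dvd.intro _ ((ncard_orbit_mul_stab (stabilizer grp (0 : Fin 4060)) u).trans card_grp_and_stab.2)

/-- The suborbits are the label classes. -/
theorem orbit_eq_labSet (u : Fin 4060) : orbit (stabilizer grp (0 : Fin 4060)) u = labSet (pLabel u) := by
  refine subset_antisymm (fun v hv => ?_) (labSet_subset u)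
  by_contra hne
  have hlab : ∀ i : Fin 4060, pLabel i < 3 := fun i => by
    have h := allBelow_spec pTree_ok i i.2
    simp only [pTreeStep, Bool.and_eq_true, Nat.blt_eq] at h
    exact h.1
  have hzero : ∀ i : Fin 4060, pLabel i = 0 → i = 0 := fun i hi => by
    obtain ⟨a, ha⟩ := Set.ncard_eq_one.1 (show (labSet 0).ncard = 1 from ncard_labSet 0)
    exact ((Set.ext_iff.1 ha i).1 hi).trans ((Set.ext_iff.1 ha 0).1 lab_facts.1).symm
  have hne' : pLabel v ≠ pLabel u := hne
  have hfix : ∀ w : Fin 4060, (0 : Fin 4060) ∈ orbit (stabilizer grp (0 : Fin 4060)) w → w = 0 := by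
    intro w hw
    obtain ⟨g, hg⟩ := mem_orbit_symm.1 hw
    rw [← hg]
    exact g.2
  have hv0 : pLabel v ≠ 0 := fun h => by
    obtain rfl := hzero v h
    exact hne' (by rw [hfix u hv])
  have hu0 : pLabel u ≠ 0 := fun h => by
    obtain rfl := hzero u h
    exact hne' (by rw [hfix v (mem_orbit_symm.1 hv)])
  have hsub : labSet 1 ∪ labSet 2 ⊆ orbit (stabilizer grp (0 : Fin 4060)) u := by
    have h1 := labSet_subset u
    have h2 := labSet_subset v
    rw [orbit_eq_iff.2 hv] at h2
    have := hlab u
    have := hlab v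
    rcases (show pLabel u = 1 ∧ pLabel v = 2 ∨ pLabel u = 2 ∧ pLabel v = 1 by omega) with ⟨e1, e2⟩ | ⟨e1, e2⟩
    · rw [e1] at h1; rw [e2] at h2; exact Set.union_subset h1 h2
    · rw [e1] at h1; rw [e2] at h2; exact Set.union_subset h2 h1
  have hup : orbit (stabilizer grp (0 : Fin 4060)) u ⊆ labSet 1 ∪ labSet 2 := by
    intro w hw
    have hw0 : pLabel w ≠ 0 := fun h => by
      obtain rfl := hzero w h
      exact hu0 (by rw [hfix u hw]; exact lab_facts.1)
    rcases (show pLabel w = 1 ∨ pLabel w = 2 by have := hlab w; omega) with e | e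
    exacts [Or.inl e, Or.inr e]
  have hd := orbit_dvd u
  rw [← subset_antisymm hsub hup, Set.ncard_union_eq
    (Set.disjoint_left.2 fun w h1 h2 => absurd (h1.symm.trans h2) (by norm_num)),
    show (labSet 1).ncard = 2304 from ncard_labSet 1, show (labSet 2).ncard = 1755 from ncard_labSet 2] at hd
  norm_num at hd

/-- The suborbit of size 1755. -/
theorem near_orbit : orbit (stabilizer grp (0 : Fin 4060)) nearPt = labSet 2 := by
  rw [orbit_eq_labSet, show pLabel (nearPt : ℕ) = 2 from lab_facts.2.2]

/-- The suborbit of size 2304. -/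
theorem far_orbit : orbit (stabilizer grp (0 : Fin 4060)) farPt = labSet 1 := by
  rw [orbit_eq_labSet, show pLabel (farPt : ℕ) = 1 from lab_facts.2.1]

/-- The graph at the line `0`. -/
theorem edge_zero_iff (y : Fin 4060) : Edge grp (0 : Fin 4060) nearPt 0 y ↔ pLabel y = 2 := by
  rw [edge_base, near_orbit]; rfl

/-- The data of the rank three action. -/
theorem sub_grp : Sub grp (0 : Fin 4060) nearPt farPt 4060 1755 2304 where
  finG := inferInstance
  finV := inferInstance
  pre := grp_pretransitive
  card := Nat.card_fin _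
  near := by rw [near_orbit]; exact ncard_labSet 2
  far := by rw [far_orbit]; exact ncard_labSet 1
  ne := by norm_num
  sum := by norm_num
  kpos := by norm_num
  lpos := by norm_num
  noBlock := by norm_num

end CfsgLib.RuPerm.Recog
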