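import Cfsg.Agent.Lib.RuPerm.RecogRowDefs

/-! Kernel check of a part of the rows. -/

set_option autoImplicit false
set_option maxRecDepth 100000
set_option Elab.async false

namespace CfsgLib.RuPerm.Recog

theorem rows0_ok : rowsOK Data.rgRows0 = true := by decide +kernel

theorem rows1_ok : rowsOK Data.rgRows1 = true := by decide +kernel

theorem rows2_ok : rowsOK Data.rgRows2 = true := by decide +kernel

theorem rows3_ok : rowsOK Data.rgRows3 = true := by decide +kernel

theorem rows4_ok : rowsOK Data.rgRows4 = true := by decide +kernel

theorem rows5_ok : rowsOK Data.rgRows5 = true := by decide +kernel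

end CfsgLib.RuPerm.Recog
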