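import Cfsg.Agent.Lib.RuPerm.RecogRowDefs

/-! Kernel check of a part of the rows. -/

set_option autoImplicit false
set_option maxRecDepth 100000
set_option Elab.async false

namespace CfsgLib.RuPerm.Recog

theorem rows6_ok : rowsOK Data.rgRows6 = true := by decide +kernel

theorem rows7_ok : rowsOK Data.rgRows7 = true := by decide +kernel

theorem rows8_ok : rowsOK Data.rgRows8 = true := by decide +kernel

theorem rows9_ok : rowsOK Data.rgRows9 = true := by decide +kernel

theorem rows10_ok : rowsOK Data.rgRows10 = true := by decide +kernel

theorem rows11_ok : rowsOK Data.rgRows11 = true := by decide +kernel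

end CfsgLib.RuPerm.Recog
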