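import Cfsg.Agent.Lib.RuPerm.RecogRowDefs

/-! Kernel check of a part of the rows. -/

set_option autoImplicit false
set_option maxRecDepth 100000
set_option Elab.async false

namespace CfsgLib.RuPerm.Recog

theorem rows18_ok : rowsOK Data.rgRows18 = true := by decide +kernel

theorem rows19_ok : rowsOK Data.rgRows19 = true := by decide +kernel

theorem rows20_ok : rowsOK Data.rgRows20 = true := by decide +kernel

theorem rows21_ok : rowsOK Data.rgRows21 = true := by decide +kernel

theorem rows22_ok : rowsOK Data.rgRows22 = true := by decide +kernel

end CfsgLib.RuPerm.Recog
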