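import Cfsg.Agent.Lib.RuPerm.RecogEdge
import Cfsg.Agent.Lib.RuPerm.RecogBatchChecks
import Cfsg.Agent.Lib.RuPerm.RecogRows0
import Cfsg.Agent.Lib.RuPerm.RecogRows1
import Cfsg.Agent.Lib.RuPerm.RecogRows2
import Cfsg.Agent.Lib.RuPerm.RecogRows3
import Cfsg.Agent.Lib.RankThreeRecog.RecogniseBound

/-!
The automorphisms of the graph on 4060 lines fixing a line: at most 3606 times the stabiliser in the group.
-/

set_option autoImplicit false
set_option maxRecDepth 100000
set_option Elab.async false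

namespace CfsgLib.RuPerm.Recog

open CfsgLib.SporRecognition.CosetCert
open CfsgLib.RankThreeRecog
open MulAction

local notation "EdgeRu" => Edge grp (0 : Fin 4060) nearPt

theorem grp_tabs {t : BTree} (ht : t ∈ [Data.n0, Data.n1, Data.n0i, Data.n1i, Data.n2, Data.n3, Data.n2i, Data.n3i]) :
    Real grp (tab t 12) := by
  simp only [List.mem_cons, List.not_mem_nil, or_false] at ht
  rcases ht with rfl | rfl | rfl | rfl | rfl | rfl | rfl | rfl
  exacts [real_n0, real_n1, real_n0i, real_n1i, real_n2, real_n3, real_inv n2i_ok real_n2,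
    real_inv n3i_ok real_n3]

theorem words_ok : ∀ e ∈ allRows, ∀ t ∈ e.2.2,
    t ∈ [Data.n0, Data.n1, Data.n0i, Data.n1i, Data.n2, Data.n3, Data.n2i, Data.n3i] := by
  simp only [allRows, Data.rgRows0, Data.rgRows1, Data.rgRows2, Data.rgRows3, Data.rgRows4, Data.rgRows5, Data.rgRows6, Data.rgRows7, Data.rgRows8, Data.rgRows9, Data.rgRows10, Data.rgRows11, Data.rgRows12, Data.rgRows13, Data.rgRows14, Data.rgRows15, Data.rgRows16, Data.rgRows17, Data.rgRows18, Data.rgRows19, Data.rgRows20, Data.rgRows21, Data.rgRows22, List.flatten_cons, List.flatten_nil, List.append_nil, List.cons_append,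
    List.nil_append, List.forall_mem_cons, List.not_mem_nil, IsEmpty.forall_iff, implies_true, and_true]
  simp only [List.mem_cons, true_or, or_true, and_self]

theorem row_spec {e : ℕ × ℕ × List BTree} (he : e ∈ allRows) :
    ∃ f : Fin 4060, (f : ℕ) = e.1 ∧ ∀ i : Fin 4060, Nat.testBit e.2.1 i = true ↔ EdgeRu f i := by
  have hok : rowOK e = true := by
    obtain ⟨l, hl, hel⟩ := List.mem_flatten.1 he
    simp only [List.mem_cons, List.not_mem_nil, or_false] at hl
    rcases hl with rfl | rfl | rfl | rfl | rfl | rfl | rfl | rfl | rfl | rfl | rfl | rfl | rfl | rfl | rfl | rfl | rfl | rfl | rfl | rfl | rfl | rfl | rfl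
    exacts [rowsOK_spec rows0_ok e hel, rowsOK_spec rows1_ok e hel, rowsOK_spec rows2_ok e hel, rowsOK_spec rows3_ok e hel, rowsOK_spec rows4_ok e hel, rowsOK_spec rows5_ok e hel, rowsOK_spec rows6_ok e hel, rowsOK_spec rows7_ok e hel, rowsOK_spec rows8_ok e hel, rowsOK_spec rows9_ok e hel, rowsOK_spec rows10_ok e hel, rowsOK_spec rows11_ok e hel, rowsOK_spec rows12_ok e hel, rowsOK_spec rows13_ok e hel, rowsOK_spec rows14_ok e hel, rowsOK_spec rows15_ok e hel, rowsOK_spec rows16_ok e hel, rowsOK_spec rows17_ok e hel, rowsOK_spec rows18_ok e hel, rowsOK_spec rows19_ok e hel, rowsOK_spec rows20_ok e hel, rowsOK_spec rows21_ok e hel, rowsOK_spec rows22_ok e hel]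
  simp only [rowOK, Bool.and_eq_true, Nat.blt_eq, Nat.beq_eq] at hok
  obtain ⟨⟨hf, h0⟩, hall⟩ := hok
  obtain ⟨g, hg, hgv⟩ := real_trace (ts := e.2.2.map fun t => tab t 12) (G := grp) fun t ht => by
    obtain ⟨x, hx, rfl⟩ := List.mem_map.1 ht
    exact grp_tabs (words_ok e he x hx)
  refine ⟨⟨e.1, hf⟩, rfl, fun i => ?_⟩
  have hgf : g ⟨e.1, hf⟩ = 0 := Fin.ext ((hgv _).trans h0)
  have hiff : EdgeRu ⟨e.1, hf⟩ i ↔ pLabel (trace (e.2.2.map fun t => tab t 12) i) = 2 := by
    rw [← edge_smul (⟨g, hg⟩ : grp) (x := ⟨e.1, hf⟩) (y := i)]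
    show EdgeRu (g ⟨e.1, hf⟩) (g i) ↔ _
    rw [hgf, edge_zero_iff, hgv]
  rw [hiff]
  have h := allBelow_spec hall i i.2
  simp only [rowStep] at h
  cases hb : Nat.testBit e.2.1 (i : ℕ) <;> rw [hb] at h
  · simp only [cond_false, Bool.not_eq_true'] at h
    simp only [Bool.false_eq_true, false_iff]
    intro hp
    rw [hp] at h
    simp at h
  · simpa using h

theorem rowsSpec_of_pairs {l : List (ℕ × ℕ)} (h : pairsOK l = true) :
    RowsSpec (N := 4060) EdgeRu l := by
  intro r hr
  simp only [pairsOK, List.all_eq_true, List.any_eq_true, Bool.and_eq_true, Nat.beq_eq] at h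
  obtain ⟨e, he, h1, h2⟩ := h r hr
  rw [h1, h2]
  exact row_spec he

theorem rowsSpec_take {k : ℕ} : RowsSpec (N := 4060) EdgeRu (Data.rgFirst.take k) :=
  fun r hr => rowsSpec_of_pairs pairs_ok.1 r (List.mem_of_mem_take hr)

/-- The bound for the automorphisms of the graph fixing the line `0`. -/
theorem card_graph_stab_le :
    Nat.card (stabilizer (relAut EdgeRu) (0 : Fin 4060)) ≤
      3606 * Nat.card (stabilizer grp (0 : Fin 4060)) := by
  set A := relAut EdgeRu with hAdef
  have hA : ∀ g ∈ A, ∀ x y, EdgeRu (g x) (g y) ↔ EdgeRu x y := fun g hg => hg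
  have e0 : Nat.card (stabilizer A (0 : Fin 4060)) = Nat.card (fixer A 1) :=
    Nat.card_congr
      { toFun := fun s => ⟨s.1.1, s.1.2, fun x hx => by
          have : x = 0 := Fin.ext (by
            change Nat.testBit 1 (x : ℕ) = true at hx
            rw [Nat.testBit_one_eq_true_iff_self_eq_zero] at hx
            exact hx)
          subst this; exact s.2⟩
        invFun := fun s => ⟨⟨s.1, s.2.1⟩, s.2.2 0 rfl⟩
        left_inv := fun _ => rfl
        right_inv := fun _ => rfl }
  have h1 := fixer_pick_card (A := A) (key rowsOne 1) (v := 3251) (by norm_num)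
    (fun g hg i => key_invariant hA rowsSpec_take fixed_ok.1 hg i) pick1_ok
  have h2 := fixer_pick_card (A := A) (key rowsTwo mask1) (v := 3305) (by norm_num)
    (fun g hg i => key_invariant hA rowsSpec_take fixed_ok.2.1 hg i) pick2_ok
  have h3 := fixer_pick_card (A := A) (key rowsThree mask2) (v := 2806) (by norm_num)
    (fun g hg i => key_invariant hA rowsSpec_take fixed_ok.2.2.1 hg i) pick3_ok
  have h4 := fixer_pick_card (A := A) fourthKey (v := 3932) (by norm_num)
    (fun g hg i => countKey_invariant hA (rowsSpec_of_pairs pairs_ok.1) (rowsSpec_of_pairs pairs_ok.2.1)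
      fixed_ok.2.2.2 class_ok 31 hg i) pick4_ok
  have hrs : ∀ r ∈ [Data.rgPickRows1, Data.rgPickRows2, Data.rgPickRows3, Data.rgBatchRows1,
      Data.rgBatchRows2, Data.rgBatchRows3], RowsSpec (N := 4060) EdgeRu r := by
    intro r hr x hx
    have h := rows_sub r hr x hx
    simp only [List.any_eq_true, Bool.and_eq_true, Nat.beq_eq] at h
    obtain ⟨y, hy, e1, e2⟩ := h
    rw [e1, e2]
    exact rowsSpec_of_pairs pairs_ok.2.2 y hy
  have h5 := fixer_pick_card (A := A) (key Data.rgPickRows1 mask4) (v := 3826) (by norm_num)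
    (fun g hg i => key_invariant hA (hrs _ (by simp)) fixed_more.1 hg i) pick5_ok
  have h6 := fixer_pick_card (A := A) (key Data.rgPickRows2 mask5) (v := 3667) (by norm_num)
    (fun g hg i => key_invariant hA (hrs _ (by simp)) fixed_more.2.1 hg i) pick6_ok
  have h7 := fixer_pick_card (A := A) (key Data.rgPickRows3 mask6) (v := 3376) (by norm_num)
    (fun g hg i => key_invariant hA (hrs _ (by simp)) fixed_more.2.2 hg i) pick7_ok
  have b1 : fixer A mask7 ≤ fixer A mask8 := fixer_batch (key Data.rgBatchRows1 mask7)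
    (tab Data.rgPos1 12) (tab Data.rgOrd1 12) (d := 12)
    (fun g hg i => key_invariant hA (hrs _ (by simp)) fixed_batch.1 hg i) sort1_ok single1_ok
  have b2 : fixer A mask8 ≤ fixer A mask9 := fixer_batch (key Data.rgBatchRows2 mask8)
    (tab Data.rgPos2 12) (tab Data.rgOrd2 12) (d := 12)
    (fun g hg i => key_invariant hA (hrs _ (by simp)) fixed_batch.2.1 hg i) sort2_ok single2_ok
  have b3 : fixer A mask9 ≤ fixer A mask10 := fixer_batch (key Data.rgBatchRows3 mask9)
    (tab Data.rgPos3 12) (tab Data.rgOrd3 12) (d := 12)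
    (fun g hg i => key_invariant hA (hrs _ (by simp)) fixed_batch.2.2.1 hg i) sort3_ok single3_ok
  have b4 : fixer A mask10 ≤ fixer A mask11 := fixer_batch (key Data.rgBatchRows4 mask10)
    (tab Data.rgPos4 12) (tab Data.rgOrd4 12) (d := 12)
    (fun g hg i => key_invariant hA (rowsSpec_of_pairs pairs_ok.2.2) fixed_batch.2.2.2 hg i)
    sort4_ok single4_ok
  have h8 : Nat.card (fixer A mask7) ≤ 1 := by
    refine (Subgroup.card_le_of_le (((b1.trans b2).trans b3).trans b4)).trans ?_
    have : fixer A mask11 = ⊥ := by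
      rw [Subgroup.eq_bot_iff_forall]
      exact fun g hg => Equiv.ext fun x => hg.2 x (allBelow_spec all_fixed x x.2)
    rw [this, Subgroup.card_bot]
  rw [e0]
  have hst : Nat.card (stabilizer grp (0 : Fin 4060)) = 35942400 := card_grp_and_stab.2
  rw [hst]
  calc Nat.card (fixer A 1) ≤ 1755 * (730 * (281 * (2 * (15 * (6 * (2 * 1)))))) :=
        h1.trans (Nat.mul_le_mul_left _ (h2.trans (Nat.mul_le_mul_left _
          (h3.trans (Nat.mul_le_mul_left _ (h4.trans (Nat.mul_le_mul_left _
            (h5.trans (Nat.mul_le_mul_left _ (h6.trans (Nat.mul_le_mul_left _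
              (h7.trans (Nat.mul_le_mul_left _ h8)))))))))))))
    _ ≤ 3606 * 35942400 := by norm_num

/-- The side conditions of the recognition with this bound. -/
theorem size_ok : ∀ m ∈ [1, 1 + 1755, 1 + 2304], ¬ (m ∣ 4060 ∧ 4060 ≤ 3606 * m) := by decide

end CfsgLib.RuPerm.Recog
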