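import Cfsg.Agent.Lib.RuPerm.RecogRowDefs
import Cfsg.Agent.Lib.RankThreeRecog.RigidCount

/-! Kernel checks of the rigidity certificate of the graph on 4060 lines. -/

set_option autoImplicit false
set_option maxRecDepth 100000
set_option Elab.async false

namespace CfsgLib.RuPerm.Recog

open CfsgLib.SporRecognition.CosetCert
open CfsgLib.RankThreeRecog

/-- All rows with their words. -/
def allRows : List (ℕ × ℕ × List BTree) :=
  [Data.rgRows0, Data.rgRows1, Data.rgRows2, Data.rgRows3, Data.rgRows4, Data.rgRows5, Data.rgRows6, Data.rgRows7, Data.rgRows8, Data.rgRows9, Data.rgRows10, Data.rgRows11, Data.rgRows12, Data.rgRows13, Data.rgRows14, Data.rgRows15, Data.rgRows16, Data.rgRows17, Data.rgRows18, Data.rgRows19, Data.rgRows20, Data.rgRows21, Data.rgRows22].flatten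

/-- The rows belong to the table. -/
noncomputable def pairsOK (l : List (ℕ × ℕ)) : Bool :=
  l.all fun r => allRows.any fun e => Nat.beq r.1 e.1 && Nat.beq r.2 e.2.1

/-- The rows of the first one and two base lines. -/
def rowsOne : List (ℕ × ℕ) := Data.rgFirst.take 1
/-- The rows of the first two base lines. -/
def rowsTwo : List (ℕ × ℕ) := Data.rgFirst.take 2
/-- The rows of the first three base lines. -/
def rowsThree : List (ℕ × ℕ) := Data.rgFirst.take 3

/-- The first mask. -/
def mask1 : ℕ := Nat.lor 1 (Nat.shiftLeft 1 3251)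
/-- The second mask. -/
def mask2 : ℕ := Nat.lor mask1 (Nat.shiftLeft 1 3305)
/-- The third mask. -/
def mask3 : ℕ := Nat.lor mask2 (Nat.shiftLeft 1 2806)
/-- The fourth mask. -/
def mask4 : ℕ := Nat.lor mask3 (Nat.shiftLeft 1 3932)

/-- The classification for the fourth base line. -/
noncomputable def fourthKey : ℕ → ℕ := countKey Data.rgFirst Data.rgClass mask3 31

theorem pairs_ok : pairsOK Data.rgFirst = true ∧ pairsOK Data.rgClass = true ∧
    pairsOK Data.rgBatchRows4 = true := by
  refine ⟨?_, ?_, ?_⟩ <;> decide +kernel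

theorem fixed_ok : rowsFixed rowsOne 1 = true ∧ rowsFixed rowsTwo mask1 = true ∧
    rowsFixed rowsThree mask2 = true ∧ rowsFixed Data.rgFirst mask3 = true := by
  refine ⟨?_, ?_, ?_, ?_⟩ <;> decide +kernel

theorem class_ok : classRows 4060 Data.rgFirst Data.rgClass mask3 Data.rgClassKey = true := by decide +kernel

theorem pick1_ok : (List.range 4060).countP (fun i => Nat.beq (key rowsOne 1 i) (key rowsOne 1 3251)) ≤ 1755 := by
  decide +kernel

theorem pick2_ok : (List.range 4060).countP (fun i => Nat.beq (key rowsTwo mask1 i) (key rowsTwo mask1 3305)) ≤ 730 := by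
  decide +kernel

theorem pick3_ok : (List.range 4060).countP (fun i => Nat.beq (key rowsThree mask2 i) (key rowsThree mask2 2806)) ≤ 281 := by
  decide +kernel

theorem pick4_ok : (List.range 4060).countP (fun i => Nat.beq (fourthKey i) (fourthKey 3932)) ≤ 2 := by
  decide +kernel

/-- The fifth mask. -/
def mask5 : ℕ := Nat.lor mask4 (Nat.shiftLeft 1 3826)
/-- The sixth mask. -/
def mask6 : ℕ := Nat.lor mask5 (Nat.shiftLeft 1 3667)
/-- The seventh mask. -/
def mask7 : ℕ := Nat.lor mask6 (Nat.shiftLeft 1 3376)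
/-- The mask after the first batch. -/
def mask8 : ℕ := Nat.lor mask7 Data.rgNew1
/-- The mask after the second batch. -/
def mask9 : ℕ := Nat.lor mask8 Data.rgNew2
/-- The mask after the third batch. -/
def mask10 : ℕ := Nat.lor mask9 Data.rgNew3
/-- The last mask. -/
def mask11 : ℕ := Nat.lor mask10 Data.rgNew4

theorem fixed_more : rowsFixed Data.rgPickRows1 mask4 = true ∧ rowsFixed Data.rgPickRows2 mask5 = true ∧
    rowsFixed Data.rgPickRows3 mask6 = true := by
  refine ⟨?_, ?_, ?_⟩ <;> decide +kernel

theorem fixed_batch : rowsFixed Data.rgBatchRows1 mask7 = true ∧ rowsFixed Data.rgBatchRows2 mask8 = true ∧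
    rowsFixed Data.rgBatchRows3 mask9 = true ∧ rowsFixed Data.rgBatchRows4 mask10 = true := by
  refine ⟨?_, ?_, ?_, ?_⟩ <;> decide +kernel

theorem pick5_ok : (List.range 4060).countP
    (fun i => Nat.beq (key Data.rgPickRows1 mask4 i) (key Data.rgPickRows1 mask4 3826)) ≤ 15 := by
  decide +kernel

theorem pick6_ok : (List.range 4060).countP
    (fun i => Nat.beq (key Data.rgPickRows2 mask5 i) (key Data.rgPickRows2 mask5 3667)) ≤ 6 := by
  decide +kernel

theorem pick7_ok : (List.range 4060).countP
    (fun i => Nat.beq (key Data.rgPickRows3 mask6 i) (key Data.rgPickRows3 mask6 3376)) ≤ 2 := by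
  decide +kernel

theorem rows_sub : ∀ r ∈ [Data.rgPickRows1, Data.rgPickRows2, Data.rgPickRows3, Data.rgBatchRows1,
    Data.rgBatchRows2, Data.rgBatchRows3], ∀ x ∈ r, (Data.rgBatchRows4.any fun y =>
      Nat.beq x.1 y.1 && Nat.beq x.2 y.2) = true := by
  decide +kernel

end CfsgLib.RuPerm.Recog
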