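import Cfsg.Agent.Lib.RuPerm.Group
import Cfsg.Agent.Lib.RuPerm.Data.RecogRigid

/-! The checks of the rows of the graph on 4060 lines. -/

set_option autoImplicit false
set_option Elab.async false

namespace CfsgLib.RuPerm.Recog

open CfsgLib.SporRecognition.CosetCert

/-- One row at one line. -/
noncomputable def rowStep (R : ℕ) (ts : List (ℕ → ℕ)) (i : ℕ) : Bool :=
  bif Nat.testBit R i then Nat.beq (pLabel (trace ts i)) 2 else !(Nat.beq (pLabel (trace ts i)) 2)

/-- One row. -/
noncomputable def rowOK (e : ℕ × ℕ × List BTree) : Bool :=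
  Nat.blt e.1 4060 && Nat.beq (trace (e.2.2.map fun t => tab t 12) e.1) 0 &&
    allBelow 12 4060 (rowStep e.2.1 (e.2.2.map fun t => tab t 12))

/-- A list of rows. -/
noncomputable def rowsOK (l : List (ℕ × ℕ × List BTree)) : Bool :=
  List.rec true (fun e _ ih => rowOK e && ih) l

theorem rowsOK_spec : ∀ {l : List (ℕ × ℕ × List BTree)}, rowsOK l = true → ∀ e ∈ l, rowOK e = true
  | [], _ => fun _ h => absurd h List.not_mem_nil
  | e :: l, h => by
    change (rowOK e && rowsOK l) = true at h
    rw [Bool.and_eq_true] at h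
    exact List.forall_mem_cons.2 ⟨h.1, rowsOK_spec h.2⟩

end CfsgLib.RuPerm.Recog
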