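import Cfsg.Agent.Lib.RuPerm.Group
import Cfsg.Agent.Lib.RuPerm.Data.Twisted
import Cfsg.Agent.Lib.Twisted.TitsRows

/-! Kernel checks for the action of the twisted group on the 1755 lines. -/

set_option autoImplicit false
set_option maxRecDepth 100000
set_option Elab.async false

namespace CfsgLib.RuPerm

open CfsgLib.SporRecognition.CosetCert
open CfsgLib.Twisted.Tits (mulVB invTabs)

/-- The vector with a given index. -/
noncomputable def twVecAt (v : ℕ) : ℕ := tab Data.twVec 52 v

/-- The point of a vector. -/
noncomputable def twPtAt (v : ℕ) : ℕ := tab Data.twPt 11 v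

/-- The vectors are listed ascending, and have points. -/
noncomputable def twVecStep (v : ℕ) : Bool :=
  Nat.blt (twPtAt v) 1755 &&
    (bif Nat.blt (Nat.add v 1) 3510 then Nat.blt (twVecAt v) (twVecAt (Nat.add v 1))
      else Nat.blt (twVecAt v) 4503599627370496)

/-- The section of the point map. -/
noncomputable def twSecStep (j : ℕ) : Bool :=
  Nat.blt (tab Data.twSec 12 j) 3510 && Nat.beq (twPtAt (tab Data.twSec 12 j)) j

/-- One generator: the image vector, and the image line under the word. -/
noncomputable def twStep (rows : List ℕ) (img : BTree) (w : List BTree) (v : ℕ) : Bool :=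
  Nat.blt (tab img 12 v) 3510 && Nat.beq (mulVB rows (twVecAt v)) (twVecAt (tab img 12 v)) &&
    Nat.beq (trace (w.map fun t => tab t 12) (oLine (twPtAt v))) (oLine (twPtAt (tab img 12 v)))

theorem twVec_ok : allBelow 12 3510 twVecStep = true := by decide +kernel

theorem twSec_ok : allBelow 11 1755 twSecStep = true := by decide +kernel

theorem twGen0_ok : allBelow 12 3510 (twStep (invTabs.getD 0 []) Data.twImg0 Data.twWord0) = true := by
  decide +kernel

theorem twGen1_ok : allBelow 12 3510 (twStep (invTabs.getD 1 []) Data.twImg1 Data.twWord1) = true := by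
  decide +kernel

theorem twGen2_ok : allBelow 12 3510 (twStep (invTabs.getD 2 []) Data.twImg2 Data.twWord2) = true := by
  decide +kernel

theorem twGen3_ok : allBelow 12 3510 (twStep (invTabs.getD 3 []) Data.twImg3 Data.twWord3) = true := by
  decide +kernel

theorem twMoved_ok : Nat.beq (twPtAt (tab Data.twImg0 12 (tab Data.twImg1 12 0))) (twPtAt 0) = false := by
  decide +kernel

end CfsgLib.RuPerm
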