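import Cfsg.Agent.Lib.RuPerm.TwistedChecks
import Cfsg.Agent.Lib.Twisted.TitsMain

/-!
The point stabiliser of the group on the 4060 lines is isomorphic to `²F₄(2)`: both groups act on the 1755 lines of
one suborbit, with matching generators.
-/

set_option autoImplicit false
set_option maxRecDepth 100000
set_option Elab.async false

namespace CfsgLib.RuPerm

open Cfsg.Lie
open CfsgLib.SporRecognition.CosetCert
open CfsgLib.Twisted.Tits (mulVB invTabs vecB vecB_inj gen gen_inv_apply genT closure_genT)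

local notation "TG" => twistedF4 (ZMod 2) 1

attribute [local irreducible] vecB mulVB oLine twVecAt twPtAt

theorem twVec_lt : ∀ v < 3510, twPtAt v < 1755 ∧ twVecAt v < 4503599627370496 ∧
    (v + 1 < 3510 → twVecAt v < twVecAt (v + 1)) := by
  have hstep : ∀ v < 3510, twPtAt v < 1755 ∧ (v + 1 < 3510 → twVecAt v < twVecAt (v + 1)) ∧
      (¬v + 1 < 3510 → twVecAt v < 4503599627370496) := by
    intro v hv
    have h := allBelow_spec twVec_ok v hv
    simp only [twVecStep, Bool.and_eq_true, Nat.blt_eq, Nat.add_eq] at h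
    refine ⟨h.1, fun h1 => ?_, fun h1 => ?_⟩
    · have h2 := h.2
      rw [show Nat.blt (v + 1) 3510 = true from Nat.blt_eq.mpr h1, cond_true, Nat.blt_eq] at h2
      exact h2
    · have h2 := h.2
      rw [show Nat.blt (v + 1) 3510 = false from Bool.eq_false_iff.2 fun e => h1 (Nat.blt_eq.mp e),
        cond_false, Nat.blt_eq] at h2
      exact h2
  have key : ∀ d v, v + d = 3509 → twVecAt v < 4503599627370496 := by
    intro d
    induction d with
    | zero => intro v hv; exact (hstep v (by omega)).2.2 (by omega)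
    | succ d ih => intro v hv; exact lt_trans ((hstep v (by omega)).2.1 (by omega)) (ih (v + 1) (by omega))
  exact fun v hv => ⟨(hstep v hv).1, key (3509 - v) v (by omega), (hstep v hv).2.1⟩

/-- The vector of an index. -/
noncomputable def twF (i : Fin 3510) : chevF4.Idx → ZMod 2 := vecB (twVecAt i)

/-- The point of an index. -/
noncomputable def twP (i : Fin 3510) : Fin 1755 := ⟨twPtAt i, (twVec_lt i i.2).1⟩

theorem twF_injective : Function.Injective twF := by
  have hm : StrictMono fun i : Fin 3510 => twVecAt i := by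
    refine Fin.strictMono_iff_lt_succ.2 fun i => ?_
    exact (twVec_lt i.1 (by omega)).2.2 (by omega)
  intro i j e
  exact hm.injective (vecB_inj (twVec_lt i i.2).2.1 (twVec_lt j j.2).2.1 e)

theorem twP_surjective : Function.Surjective twP := by
  intro j
  have h := allBelow_spec twSec_ok j.1 j.2
  simp only [twSecStep, Bool.and_eq_true, Nat.blt_eq, Nat.beq_eq] at h
  exact ⟨⟨_, h.1⟩, Fin.ext h.2⟩

/-- A matrix moves the indices compatibly with a permutation of the points. -/
def TwRel (g : GL chevF4.Idx (ZMod 2)) (σ : Equiv.Perm (Fin 1755)) : Prop :=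
  ∀ i, ∃ i', Matrix.vecMul (twF i) ((g⁻¹ : GL chevF4.Idx (ZMod 2)) : Matrix chevF4.Idx chevF4.Idx (ZMod 2)) = twF i' ∧
    twP i' = σ (twP i)

theorem twRel_one : TwRel 1 1 := fun i => ⟨i, by rw [inv_one, Units.val_one, Matrix.vecMul_one], rfl⟩

theorem twRel_mul {g h : GL chevF4.Idx (ZMod 2)} {σ τ : Equiv.Perm (Fin 1755)} (hg : TwRel g σ)
    (hh : TwRel h τ) : TwRel (g * h) (σ * τ) := by
  intro i
  obtain ⟨i1, e1, p1⟩ := hh i
  obtain ⟨i2, e2, p2⟩ := hg i1
  refine ⟨i2, ?_, by rw [p2, p1]; rfl⟩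
  rw [mul_inv_rev, Units.val_mul, ← Matrix.vecMul_vecMul, e1, e2]

theorem twRel_inv {g : GL chevF4.Idx (ZMod 2)} {σ : Equiv.Perm (Fin 1755)} (hg : TwRel g σ) :
    TwRel g⁻¹ σ⁻¹ := by
  choose f hf hp using hg
  have hinj : Function.Injective f := by
    intro a b e
    have h := (hf a).trans (by rw [e]) |>.trans (hf b).symm
    have := congrArg (fun u => Matrix.vecMul u (g : Matrix chevF4.Idx chevF4.Idx (ZMod 2))) h
    simp only [Matrix.vecMul_vecMul, Units.inv_mul, Matrix.vecMul_one] at this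
    exact twF_injective this
  intro i
  obtain ⟨j, rfl⟩ := (Finite.injective_iff_surjective.1 hinj) i
  refine ⟨j, ?_, ?_⟩
  · rw [inv_inv, ← hf j, Matrix.vecMul_vecMul, Units.inv_mul, Matrix.vecMul_one]
  · rw [hp j, Equiv.Perm.inv_def, Equiv.symm_apply_apply]

theorem twRel_unique {g : GL chevF4.Idx (ZMod 2)} {σ τ : Equiv.Perm (Fin 1755)} (hs : TwRel g σ)
    (ht : TwRel g τ) : σ = τ := by
  ext p
  obtain ⟨i, rfl⟩ := twP_surjective p
  obtain ⟨a, ha, pa⟩ := hs i
  obtain ⟨b, hb, pb⟩ := ht i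
  obtain rfl := twF_injective (ha.symm.trans hb)
  rw [← pa, ← pb]

/-- The stabiliser of the line `0`, as a group of permutations. -/
noncomputable def stabPermGrp : Subgroup (Equiv.Perm (Fin 4060)) := stab0.map grp.subtype

theorem mem_stabPermGrp {g : Equiv.Perm (Fin 4060)} (hg : g ∈ grp) (h0 : g 0 = 0) : g ∈ stabPermGrp :=
  ⟨⟨g, hg⟩, h0, rfl⟩

theorem stab_words {t : BTree} (ht : t ∈ [Data.n2, Data.n3, Data.n6, Data.n2i, Data.n3i]) :
    Real stabPermGrp (tab t 12) := by
  have h2 : Real stabPermGrp (tab Data.n2 12) :=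
    ⟨seedC, mem_stabPermGrp seedC_mem (Fin.ext ((seedC_val 0).trans fix0_ok.1)), seedC_val⟩
  have h3 : Real stabPermGrp (tab Data.n3 12) :=
    ⟨seedD, mem_stabPermGrp seedD_mem (Fin.ext ((seedD_val 0).trans fix0_ok.2.1)), seedD_val⟩
  simp only [List.mem_cons, List.not_mem_nil, or_false] at ht
  rcases ht with rfl | rfl | rfl | rfl | rfl
  · exact h2
  · exact h3
  · obtain ⟨g, hg, hgv⟩ := real_n6
    exact ⟨g, mem_stabPermGrp hg (Fin.ext ((hgv 0).trans fix0_ok.2.2.1)), hgv⟩
  · exact real_inv n2i_ok h2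
  · exact real_inv n3i_ok h3

/-- A permutation of the lines moves the suborbit as a permutation of its points. -/
def LineRel (s : Equiv.Perm (Fin 4060)) (σ : Equiv.Perm (Fin 1755)) : Prop :=
  ∀ j : Fin 1755, (s ⟨oLine j, oLine_lt j⟩ : ℕ) = oLine (σ j)

/-- The stabiliser elements keeping the suborbit. -/
noncomputable def lineGrp : Subgroup (Equiv.Perm (Fin 4060)) where
  carrier := {s | s ∈ stabPermGrp ∧ ∃ σ, LineRel s σ}
  one_mem' := ⟨one_mem _, 1, fun _ => rfl⟩
  mul_mem' := by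
    rintro a b ⟨ha, σ, hσ⟩ ⟨hb, τ, hτ⟩
    refine ⟨mul_mem ha hb, σ * τ, fun j => ?_⟩
    rw [Equiv.Perm.mul_apply, show b ⟨oLine j, oLine_lt j⟩ = ⟨oLine (τ j), oLine_lt _⟩ from Fin.ext (hτ j),
      hσ]
    rfl
  inv_mem' := by
    rintro a ⟨ha, σ, hσ⟩
    refine ⟨inv_mem ha, σ⁻¹, fun j => ?_⟩
    have h : a ⟨oLine (σ⁻¹ j), oLine_lt _⟩ = ⟨oLine j, oLine_lt j⟩ :=
      Fin.ext (by rw [hσ]; simp)
    rw [← h, Equiv.Perm.inv_def, Equiv.symm_apply_apply]

theorem lineRel_unique {s : Equiv.Perm (Fin 4060)} {σ τ : Equiv.Perm (Fin 1755)} (hs : LineRel s σ)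
    (ht : LineRel s τ) : σ = τ :=
  Equiv.ext fun j => oLine_inj ((hs j).symm.trans (ht j))

/-- The action on the suborbit. -/
noncomputable def lineHom' : lineGrp →* Equiv.Perm (Fin 1755) where
  toFun s := s.2.2.choose
  map_one' := lineRel_unique (1 : lineGrp).2.2.choose_spec fun _ => rfl
  map_mul' a b := by
    refine lineRel_unique (a * b).2.2.choose_spec fun j => ?_
    rw [Subgroup.coe_mul, Equiv.Perm.mul_apply,
      show (b : Equiv.Perm (Fin 4060)) ⟨oLine j, oLine_lt j⟩ = ⟨oLine (b.2.2.choose j), oLine_lt _⟩ from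
        Fin.ext (b.2.2.choose_spec j), a.2.2.choose_spec]
    rfl

theorem gen_data {k : ℕ} (hk : k < 4) {img : BTree} {w : List BTree}
    (hc : allBelow 12 3510 (twStep (invTabs.getD k []) img w) = true)
    (hw : ∀ t ∈ w, t ∈ [Data.n2, Data.n3, Data.n6, Data.n2i, Data.n3i]) :
    ∃ σ, TwRel (gen k) σ ∧ σ ∈ lineHom'.range ∧
      ∀ i : Fin 3510, (σ (twP i) : ℕ) = twPtAt (tab img 12 i) := by
  have hstep : ∀ v : Fin 3510, tab img 12 v < 3510 ∧
      mulVB (invTabs.getD k []) (twVecAt v) = twVecAt (tab img 12 v) ∧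
      trace (w.map fun t => tab t 12) (oLine (twPtAt v)) = oLine (twPtAt (tab img 12 v)) := by
    intro v
    have h := allBelow_spec hc v v.2
    simp only [twStep, Bool.and_eq_true, Nat.blt_eq, Nat.beq_eq] at h
    exact ⟨h.1.1, h.1.2, h.2⟩
  obtain ⟨s, hs, hsv⟩ := real_trace (ts := w.map fun t => tab t 12) (G := stabPermGrp) fun t ht => by
    obtain ⟨x, hx, rfl⟩ := List.mem_map.1 ht
    exact stab_words (hw x hx)
  let imF : Fin 3510 → Fin 3510 := fun v => ⟨tab img 12 v, (hstep v).1⟩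
  have hline : ∀ v : Fin 3510, (s ⟨oLine (twP v), oLine_lt _⟩ : ℕ) = oLine (twP (imF v)) := fun v => by
    rw [hsv]; exact (hstep v).2.2
  let sec : Fin 1755 → Fin 3510 := fun p => (twP_surjective p).choose
  have hsec : ∀ p, twP (sec p) = p := fun p => (twP_surjective p).choose_spec
  let f : Fin 1755 → Fin 1755 := fun p => twP (imF (sec p))
  have hf : ∀ p : Fin 1755, (s ⟨oLine p, oLine_lt p⟩ : ℕ) = oLine (f p) := fun p => by
    have := hline (sec p)
    rw [hsec] at this
    exact this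
  have hinj : Function.Injective f := fun a b e => by
    have h : s ⟨oLine a, oLine_lt a⟩ = s ⟨oLine b, oLine_lt b⟩ := Fin.ext (by rw [hf, hf, e])
    exact oLine_inj (congrArg Fin.val (s.injective h))
  let σ : Equiv.Perm (Fin 1755) := Equiv.ofBijective f (Finite.injective_iff_bijective.1 hinj)
  have hσ : ∀ v, σ (twP v) = twP (imF v) := fun v =>
    oLine_inj ((hf (twP v)).symm.trans (hline v))
  have hL : LineRel s σ := hf
  refine ⟨σ, fun i => ⟨imF i, ?_, (hσ i).symm⟩, ⟨⟨s, hs, σ, hL⟩, ?_⟩, fun i => by rw [hσ i]; rfl⟩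
  · show Matrix.vecMul (vecB (twVecAt i)) _ = vecB (twVecAt (tab img 12 i))
    rw [gen_inv_apply hk, (hstep i).2.1]
  · exact lineRel_unique (⟨s, hs, σ, hL⟩ : lineGrp).2.2.choose_spec hL

theorem gens_rel : (∀ k, ∃ σ, TwRel (gen k) σ ∧ σ ∈ lineHom'.range) ∧
    ∃ σ, TwRel (gen 0 * gen 1) σ ∧ σ ≠ 1 := by
  have hw : ∀ w ∈ [Data.twWord0, Data.twWord1, Data.twWord2, Data.twWord3],
      ∀ t ∈ w, t ∈ [Data.n2, Data.n3, Data.n6, Data.n2i, Data.n3i] := by
    intro w hmem t ht
    simp only [List.mem_cons, List.not_mem_nil, or_false] at hmem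
    rcases hmem with rfl | rfl | rfl | rfl <;>
      (simp only [Data.twWord0, Data.twWord1, Data.twWord2, Data.twWord3, List.mem_cons, List.not_mem_nil,
        or_false] at ht ⊢; tauto)
  obtain ⟨σ0, r0, m0, v0⟩ := gen_data (k := 0) (by norm_num) twGen0_ok (hw _ (by simp))
  obtain ⟨σ1, r1, m1, v1⟩ := gen_data (k := 1) (by norm_num) twGen1_ok (hw _ (by simp))
  obtain ⟨σ2, r2, m2, -⟩ := gen_data (k := 2) (by norm_num) twGen2_ok (hw _ (by simp))
  obtain ⟨σ3, r3, m3, -⟩ := gen_data (k := 3) (by norm_num) twGen3_ok (hw _ (by simp))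
  refine ⟨fun k => ?_, σ0 * σ1, twRel_mul r0 r1, fun e => ?_⟩
  · match k with
    | 0 => exact ⟨σ0, r0, m0⟩
    | 1 => exact ⟨σ1, r1, m1⟩
    | 2 => exact ⟨σ2, r2, m2⟩
    | 3 => exact ⟨σ3, r3, m3⟩
    | n + 4 =>
      exact ⟨1, by rw [gen, List.getD_eq_default _ _ (by simp [CfsgLib.Twisted.Tits.genRoots]),
        CfsgLib.Twisted.Tits.cW_nil]; exact twRel_one, one_mem _⟩
  · obtain ⟨i1, hi1, hp1⟩ := r1 ⟨0, by norm_num⟩
    have h1 := allBelow_spec twGen1_ok 0 (by norm_num)
    simp only [twStep, Bool.and_eq_true, Nat.blt_eq, Nat.beq_eq] at h1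
    obtain rfl : i1 = ⟨tab Data.twImg1 12 0, h1.1.1⟩ := by
      refine twF_injective (hi1.symm.trans ?_)
      simp only [twF]
      rw [gen_inv_apply (by norm_num), h1.1.2]
    have h2 : ((σ0 * σ1) (twP ⟨0, by norm_num⟩) : ℕ) = twPtAt (tab Data.twImg0 12 (tab Data.twImg1 12 0)) := by
      rw [Equiv.Perm.mul_apply, ← hp1, v0]
    rw [e, Equiv.Perm.one_apply] at h2
    have h3 := twMoved_ok
    rw [← h2] at h3
    simp [twP] at h3

/-- The elements of the twisted group moving the vectors compatibly. -/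
noncomputable def twHomSub : Subgroup ↥TG where
  carrier := {g | ∃ σ, TwRel (g : GL chevF4.Idx (ZMod 2)) σ ∧ σ ∈ lineHom'.range}
  one_mem' := ⟨1, twRel_one, one_mem _⟩
  mul_mem' := by
    rintro a b ⟨σ, hσ, hσ'⟩ ⟨τ, hτ, hτ'⟩
    exact ⟨σ * τ, twRel_mul hσ hτ, mul_mem hσ' hτ'⟩
  inv_mem' := by
    rintro a ⟨σ, hσ, hσ'⟩
    exact ⟨σ⁻¹, twRel_inv hσ, inv_mem hσ'⟩

theorem twHomSub_all (g : ↥TG) : g ∈ twHomSub := by
  have h : Subgroup.closure (Set.range genT) ≤ twHomSub :=
    (Subgroup.closure_le _).2 (by rintro _ ⟨k, rfl⟩; exact gens_rel.1 k)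
  exact h (by rw [closure_genT]; trivial)

/-- The action of the twisted group on the 1755 points. -/
noncomputable def twHom : ↥TG →* Equiv.Perm (Fin 1755) where
  toFun g := (twHomSub_all g).choose
  map_one' := twRel_unique (twHomSub_all 1).choose_spec.1 twRel_one
  map_mul' a b := twRel_unique (twHomSub_all (a * b)).choose_spec.1
    (twRel_mul (twHomSub_all a).choose_spec.1 (twHomSub_all b).choose_spec.1)

theorem twHom_range_le : twHom.range ≤ lineHom'.range := by
  rintro _ ⟨g, rfl⟩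
  exact (twHomSub_all g).choose_spec.2

theorem twHom_injective : Function.Injective twHom := by
  rw [← MonoidHom.ker_eq_bot_iff]
  rcases CfsgLib.Twisted.Tits.normal_cases twHom.ker with h | h
  · exact h
  exfalso
  set g := genT 0 * genT 1
  obtain ⟨σ, hσ, hσ1⟩ := gens_rel.2
  have hg : twHom g = σ := twRel_unique (twHomSub_all g).choose_spec.1 hσ
  have hs := CfsgLib.Twisted.Tits.checks_small
  simp only [Bool.and_eq_true] at hs
  have h3 : g ^ 3 = 1 := by
    have := CfsgLib.Twisted.Tits.genT_eq_of_same hs.1.2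
    simp only [List.map_cons, List.map_nil, List.prod_cons, List.prod_nil, mul_one] at this
    rw [← this, pow_succ, pow_two]
    simp only [g, mul_assoc]
  obtain ⟨m, hm⟩ := h (QuotientGroup.mk' twHom.ker g)
  have hone : QuotientGroup.mk' twHom.ker g = 1 := by
    have hd1 : orderOf (QuotientGroup.mk' twHom.ker g) ∣ 3 :=
      orderOf_dvd_of_pow_eq_one (by rw [← map_pow, h3, map_one])
    have hd2 := orderOf_dvd_of_pow_eq_one hm
    have := Nat.dvd_gcd hd1 hd2
    rw [Nat.Coprime.gcd_eq_one (Nat.Coprime.pow_right m (by norm_num : Nat.Coprime 3 2)), Nat.dvd_one,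
      orderOf_eq_one_iff] at this
    exact this
  rw [QuotientGroup.mk'_apply, QuotientGroup.eq_one_iff, MonoidHom.mem_ker, hg] at hone
  exact hσ1 hone

theorem card_stabPermGrp : Nat.card stabPermGrp = 35942400 := by
  rw [stabPermGrp, ← Nat.card_congr (stab0.equivMapOfInjective _ grp.subtype_injective).toEquiv,
    card_grp_and_stab.2]

theorem card_facts : lineGrp = stabPermGrp ∧ Function.Injective lineHom' ∧
    twHom.range = lineHom'.range := by
  have h1 : Nat.card twHom.range = 35942400 := by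
    rw [← Nat.card_congr (MonoidHom.ofInjective twHom_injective).toEquiv, CfsgLib.Twisted.Tits.card_eq]
  have h2 : Nat.card twHom.range ≤ Nat.card lineHom'.range := Subgroup.card_le_of_le twHom_range_le
  have hsurj := lineHom'.rangeRestrict_surjective
  have h3 : Nat.card lineHom'.range ≤ Nat.card lineGrp := Nat.card_le_card_of_surjective _ hsurj
  have hle : lineGrp ≤ stabPermGrp := fun s hs => hs.1
  have h4 := Subgroup.card_le_of_le hle
  rw [card_stabPermGrp] at h4
  refine ⟨Subgroup.eq_of_le_of_card_ge hle (by rw [card_stabPermGrp]; omega), ?_,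
    Subgroup.eq_of_le_of_card_ge twHom_range_le (by omega)⟩
  have hb : Function.Bijective lineHom'.rangeRestrict :=
    (Nat.bijective_iff_surjective_and_card _).2 ⟨hsurj, by omega⟩
  exact fun a b e => hb.1 (Subtype.ext e)

/-- `²F₄(2)` is the stabiliser of the line `0`. -/
noncomputable def stab0Equiv : ↥TG ≃* stab0 :=
  (MonoidHom.ofInjective twHom_injective).trans <|
    (MulEquiv.subgroupCongr card_facts.2.2).trans <|
      (MonoidHom.ofInjective card_facts.2.1).symm.trans <|
        (MulEquiv.subgroupCongr card_facts.1).trans (stab0.equivMapOfInjective _ grp.subtype_injective).symm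

end CfsgLib.RuPerm
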